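-- Team project OPAR (S5989), package [EXE0] (helper80): a fixed-point-free isometry of order `r`
-- of the plus-type form when `c ∣ 2 d` and the type matches.
import Cfsg.Agent.Lib.Helper70.OPar.Defs
import Cfsg.Agent.Lib.Helper12.OHyp.EBlkOdd

set_option autoImplicit false
open scoped MatrixGroups
open Matrix

namespace Cfsg.Agent.Lib.Helper80.OPar

open Cfsg.Agent.Lib.Helper23.OHyp Cfsg.Agent.Lib.Helper12.OHyp

universe u

section exe0

variable {F : Type u} [Field F]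

open Polynomial in
/-- An element of `GL_d(F)` with `M ^ r = 1` and no eigenvalue `1`, for `d` a multiple of
`i = ord_r(q)`. -/
theorem exists_GL_nofix80 [Fintype F] (r : ℕ) (hr : r.Prime) (hrq : ¬ r ∣ Fintype.card F)
    (d e : ℕ) (hd : d = ordI (Fintype.card F) r * e) :
    ∃ M : GL (Fin d) F, M ^ r = 1 ∧ ((M : Matrix (Fin d) (Fin d) F) - 1).det ≠ 0 := by
  classical
  obtain ⟨p, hp⟩ := CharP.exists F
  have : Fact p.Prime := ⟨CharP.char_is_prime F p⟩
  have : Fact r.Prime := ⟨hr⟩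
  have hpq : p ∣ Fintype.card F := by
    obtain ⟨f, -, hf⟩ := FiniteField.card F p
    rw [hf]
    exact dvd_pow_self p (PNat.ne_zero f)
  have hrp : r ≠ p := fun h => hrq (h ▸ hpq)
  obtain ⟨S, hS, ⟨π₀, hπ₀⟩⟩ :=
    Cfsg.Agent.Lib.Helper40.Elusive.exists_factors (F := F) (p := p) rfl r hrp
  have hS' : Cfsg.Agent.Lib.Helper40.PrimeOrderGL.Factors S r (ordI (Fintype.card F) r) := hS
  let a : S → ℕ := fun π => if π = ⟨π₀, hπ₀⟩ then e else 0
  have ha : ∑ π, a π = e := by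
    simp [a]
  obtain ⟨g, hg, hχ⟩ := Cfsg.Agent.Lib.Helper40.PrimeOrderGL.exists_GL_chi
    (n := d) p hS' hr.pos a (by rw [ha, hd])
  refine ⟨g, hg, ?_⟩
  have hχ' : (g : Matrix (Fin d) (Fin d) F).charpoly = π₀ ^ e := by
    rw [hχ, ha, ← hd, Nat.sub_self]
    simp only [Cfsg.Agent.Lib.Helper40.PrimeOrderGL.chi, pow_zero, one_mul]
    rw [Finset.prod_eq_single (⟨π₀, hπ₀⟩ : S)]
    · simp [a]
    · intro b _ hb
      simp [a, hb]
    · intro h
      exact absurd (Finset.mem_univ _) h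
  have heval : π₀.eval 1 ≠ 0 := by
    intro h0
    have hdvd : (X - C 1 : F[X]) ∣ π₀ := Polynomial.dvd_iff_isRoot.2 h0
    have hirr := hS'.irred π₀ hπ₀
    have hirr1 : Irreducible (X - C 1 : F[X]) := Polynomial.irreducible_X_sub_C 1
    have hassoc : Associated (X - C 1 : F[X]) π₀ := hirr1.associated_of_dvd hirr hdvd
    have heq : (X - C 1 : F[X]) = π₀ :=
      Polynomial.eq_of_monic_of_associated (Polynomial.monic_X_sub_C 1) (hS'.monic π₀ hπ₀) hassoc
    exact hS'.notMem (heq ▸ hπ₀)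
  intro hdet
  apply pow_ne_zero e heval
  rw [← eval_pow, ← hχ', Matrix.eval_charpoly]
  have : (Matrix.scalar (Fin d) (1 : F) - (g : Matrix (Fin d) (Fin d) F))
      = -((g : Matrix (Fin d) (Fin d) F) - 1) := by
    simp
  rw [this, Matrix.det_neg, hdet, mul_zero]

/-- [EXE0] -/
theorem pkgExe0 : Cfsg.Agent.Lib.Helper70.OPar.PkgExe0.{u} := by
  intro F _ _ _ d r hd hr _ hrq hmod htype
  classical
  have hpos := Cfsg.Agent.Lib.Helper84.OHyp.ordI_pos hr hrq
  have hi : ordI (Fintype.card F) r ∣ d := by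
    unfold cc at hmod
    split_ifs at hmod with hev
    · obtain ⟨k, hk⟩ := Nat.dvd_of_mod_eq_zero hmod
      rcases htype with ho | he
      · exact absurd hev (Nat.not_even_iff_odd.mpr ho)
      · rw [hk, Nat.mul_div_cancel_left _ hpos] at he
        obtain ⟨k', hk'⟩ := he
        refine ⟨k', ?_⟩
        have : 2 * d = 2 * (ordI (Fintype.card F) r * k') := by rw [hk, hk']; ring
        omega
    · obtain ⟨k, hk⟩ := Nat.dvd_of_mod_eq_zero hmod
      refine ⟨k, ?_⟩
      have : 2 * d = 2 * (ordI (Fintype.card F) r * k) := by rw [hk]; ring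
      omega
  obtain ⟨e, he⟩ := hi
  obtain ⟨M, hM, hdet⟩ := exists_GL_nofix80 (F := F) r hr hrq d e he
  have hunit := hypGL_sub_one_det M hdet
  have : Fact r.Prime := ⟨hr⟩
  have : Nonempty (Fin d ⊕ Fin d) := ⟨Sum.inl ⟨0, hd⟩⟩
  refine ⟨hypGL M, hypGL_mem M, ?_, ?_⟩
  · apply orderOf_eq_prime (hypGL_pow M r hM)
    intro h1
    rw [h1, Units.val_one, sub_self, Matrix.det_zero] at hunit
    exact not_isUnit_zero hunit
  · have hbot : fixSp ((hypGL M : GL (Fin d ⊕ Fin d) F) : Matrix (Fin d ⊕ Fin d) (Fin d ⊕ Fin d) F)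
        = ⊥ := by
      rw [Submodule.eq_bot_iff]
      intro v hv
      have h1 : (Matrix.toLin' ((hypGL M : GL (Fin d ⊕ Fin d) F) :
          Matrix (Fin d ⊕ Fin d) (Fin d ⊕ Fin d) F) - 1) v = 0 := hv
      have h2 : (((hypGL M : GL (Fin d ⊕ Fin d) F) :
          Matrix (Fin d ⊕ Fin d) (Fin d ⊕ Fin d) F) - 1) *ᵥ v = 0 := by
        rw [Matrix.sub_mulVec, Matrix.one_mulVec]
        simpa using h1
      exact Matrix.eq_zero_of_mulVec_eq_zero hunit.ne_zero h2
    rw [hbot, finrank_bot]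

end exe0

end Cfsg.Agent.Lib.Helper80.OPar
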