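-- Team project OPAR (S5989), package [OM2A] (helper80): for `q ≡ 3 (mod 4)` and `d` odd the
-- plus-type form `Σ xᵢ yᵢ` on `F^(2d)` has no isometry with square `-1`.
import Cfsg.Agent.Lib.Helper70.OPar.Defs
import Cfsg.Agent.Lib.Helper32.SPTEN.AltEven

set_option autoImplicit false
open scoped MatrixGroups
open Matrix

namespace Cfsg.Agent.Lib.Helper80.OPar

universe u

/-- [OM2A] -/
theorem pkgOm2A : Cfsg.Agent.Lib.Helper70.OPar.PkgOm2A.{u} := by
  intro F _ _ hq d hd x hiso hxx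
  classical
  have h2 : (2 : F) ≠ 0 := by
    intro h
    have hch : ringChar F = 2 := CharP.ringChar_of_prime_eq_zero Nat.prime_two h
    have := FiniteField.even_card_of_char_two hch
    omega
  have hns : ¬ IsSquare (-1 : F) := by
    rw [FiniteField.isSquare_neg_one_iff]
    simpa using hq
  have hx1 : ∀ u : Fin d → F, x *ᵥ (Sum.elim u 0) =
      Sum.elim (x.toBlocks₁₁ *ᵥ u) (x.toBlocks₂₁ *ᵥ u) := by
    intro u
    conv_lhs => rw [← Matrix.fromBlocks_toBlocks x]
    rw [Matrix.fromBlocks_mulVec]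
    simp
  have hQelim : ∀ u w : Fin d → F, Cfsg.quadFormPlus d F (Sum.elim u w) = u ⬝ᵥ w := by
    intro u w
    simp [Cfsg.quadFormPlus, dotProduct]
  have hkey : ∀ u : Fin d → F, u ⬝ᵥ (x.toBlocks₂₁ *ᵥ u) = 0 := by
    intro u
    have e1 : x *ᵥ (Sum.elim u 0 + x *ᵥ Sum.elim u 0) =
        x *ᵥ Sum.elim u 0 - Sum.elim u 0 := by
      rw [Matrix.mulVec_add, Matrix.mulVec_mulVec, hxx, Matrix.neg_mulVec, Matrix.one_mulVec]
      abel
    have e2 := hiso (Sum.elim u 0 + x *ᵥ Sum.elim u 0)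
    rw [e1, hx1] at e2
    have e3 : Sum.elim (x.toBlocks₁₁ *ᵥ u) (x.toBlocks₂₁ *ᵥ u) - Sum.elim u 0 =
        Sum.elim (x.toBlocks₁₁ *ᵥ u - u) (x.toBlocks₂₁ *ᵥ u) := by
      funext z
      rcases z with z | z <;> simp
    have e4 : Sum.elim u 0 + Sum.elim (x.toBlocks₁₁ *ᵥ u) (x.toBlocks₂₁ *ᵥ u) =
        Sum.elim (u + x.toBlocks₁₁ *ᵥ u) (x.toBlocks₂₁ *ᵥ u) := by
      funext z
      rcases z with z | z <;> simp
    rw [e3, e4, hQelim, hQelim, sub_dotProduct, add_dotProduct] at e2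
    have e5 : (2 : F) * (u ⬝ᵥ (x.toBlocks₂₁ *ᵥ u)) = 0 := by linear_combination -e2
    rcases mul_eq_zero.mp e5 with h | h
    · exact absurd h h2
    · exact h
  have hsymm : (x.toBlocks₂₁)ᵀ = -x.toBlocks₂₁ := by
    ext i j
    have h1 := hkey (Pi.single i 1 + Pi.single j 1)
    have h2 := hkey (Pi.single i 1)
    have h3 := hkey (Pi.single j 1)
    rw [Matrix.mulVec_add, add_dotProduct, dotProduct_add, dotProduct_add, h2, h3] at h1
    simp at h1
    simp only [Matrix.transpose_apply, Matrix.neg_apply]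
    linear_combination h1
  have hrank : Even (x.toBlocks₂₁).rank :=
    Cfsg.Agent.Lib.Helper32.SPTEN.pkgAltEven d x.toBlocks₂₁ h2 hsymm
  -- the kernel of `c` is `a`-invariant and `a² = -1` on it
  have hW : ∀ u ∈ LinearMap.ker (x.toBlocks₂₁).mulVecLin,
      (x.toBlocks₁₁).mulVecLin u ∈ LinearMap.ker (x.toBlocks₂₁).mulVecLin ∧
        x.toBlocks₁₁ *ᵥ (x.toBlocks₁₁ *ᵥ u) = -u := by
    intro u hu
    have hcu : x.toBlocks₂₁ *ᵥ u = 0 := by
      simpa using hu
    have h1 := hx1 u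
    rw [hcu] at h1
    have h3 : x *ᵥ (x *ᵥ Sum.elim u 0) = -(Sum.elim u 0) := by
      rw [Matrix.mulVec_mulVec, hxx, Matrix.neg_mulVec, Matrix.one_mulVec]
    rw [h1, hx1] at h3
    constructor
    · rw [LinearMap.mem_ker, Matrix.mulVecLin_apply, Matrix.mulVecLin_apply]
      funext i
      have h4 := congrFun h3 (Sum.inr i)
      simpa using h4
    · funext i
      have h4 := congrFun h3 (Sum.inl i)
      simpa using h4
  let a₀ : Module.End F (LinearMap.ker (x.toBlocks₂₁).mulVecLin) :=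
    (x.toBlocks₁₁).mulVecLin.restrict (fun u hu => (hW u hu).1)
  have ha0 : a₀ * a₀ = (-1 : F) • (1 : Module.End F (LinearMap.ker (x.toBlocks₂₁).mulVecLin)) := by
    ext u : 1
    apply Subtype.ext
    have h4 := (hW u.1 u.2).2
    simpa [a₀] using h4
  have hdet : LinearMap.det a₀ * LinearMap.det a₀ =
      (-1 : F) ^ Module.finrank F (LinearMap.ker (x.toBlocks₂₁).mulVecLin) := by
    rw [← map_mul, ha0, LinearMap.det_smul, map_one, mul_one]
  have hk : Even (Module.finrank F (LinearMap.ker (x.toBlocks₂₁).mulVecLin)) := by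
    by_contra hodd
    rw [Nat.not_even_iff_odd] at hodd
    rw [hodd.neg_one_pow] at hdet
    exact hns ⟨_, hdet.symm⟩
  have hrn := LinearMap.finrank_range_add_finrank_ker (x.toBlocks₂₁).mulVecLin
  rw [Module.finrank_fin_fun] at hrn
  have hr' : (x.toBlocks₂₁).rank = Module.finrank F (LinearMap.range (x.toBlocks₂₁).mulVecLin) :=
    rfl
  have hdeven : Even d := by
    rw [← hrn, ← hr']
    exact hrank.add hk
  exact (Nat.not_even_iff_odd.mpr hd) hdeven

end Cfsg.Agent.Lib.Helper80.OPar
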