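-- Sub-project [PDER+] of OPAR (S5989), package [ALT] (helper80): a nondegenerate alternating
-- form lives on a space of even dimension.
import Cfsg.Agent.Lib.Helper57.OPar.Defs

set_option autoImplicit false
open Matrix

namespace Cfsg.Agent.Lib.Helper80.OPar

universe u

/-- [ALT] -/
theorem pkgAlt : Cfsg.Agent.Lib.Helper57.OPar.PkgAlt.{u} := by
  intro F _ V _ _ _ h2 β halt hnd
  classical
  let b := Module.finBasis F V
  let A : Matrix (Fin (Module.finrank F V)) (Fin (Module.finrank F V)) F :=
    Matrix.of fun i j => β (b i) (b j)
  have hskew : ∀ u v, β u v = - β v u := by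
    intro u v
    have h := halt (u + v)
    simp only [map_add, LinearMap.add_apply, halt, zero_add, add_zero] at h
    linear_combination h
  have hAT : Aᵀ = -A := by
    ext i j
    simp only [A, Matrix.transpose_apply, Matrix.of_apply, Matrix.neg_apply]
    exact hskew _ _
  have hdet : A.det ≠ 0 := by
    intro h0
    obtain ⟨v, hv, hvA⟩ := Matrix.exists_vecMul_eq_zero_iff.mpr h0
    apply hv
    have hu : ∑ i, v i • b i = 0 := by
      apply hnd
      intro w
      have hz : β (∑ i, v i • b i) = 0 := by
        apply b.ext
        intro j
        have h1 := congrFun hvA j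
        simp only [Matrix.vecMul, dotProduct, A, Matrix.of_apply, Pi.zero_apply] at h1
        rw [map_sum, LinearMap.sum_apply]
        simpa [map_smul, LinearMap.smul_apply, smul_eq_mul] using h1
      rw [hz]
      rfl
    have hli := b.linearIndependent
    rw [Fintype.linearIndependent_iff] at hli
    funext i
    exact hli v hu i
  by_contra hodd
  rw [Nat.not_even_iff_odd] at hodd
  have h1 : A.det = -A.det := by
    conv_lhs => rw [← Matrix.det_transpose, hAT, Matrix.det_neg, Fintype.card_fin,
      hodd.neg_one_pow]
    ring
  have h3 : (2 : F) * A.det = 0 := by linear_combination h1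
  rcases mul_eq_zero.mp h3 with h | h
  · exact h2 h
  · exact hdet h

end Cfsg.Agent.Lib.Helper80.OPar
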