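-- Sub-project [PDER+] of OPAR (S5989), package [QNDP] (helper80): the plus-type form is a
-- nondegenerate quadratic form (helper12's `nondeg_quadFormPlus`).
import Cfsg.Agent.Lib.Helper57.OPar.Defs
import Cfsg.Agent.Lib.Helper12.OHyp.EBlkOdd

set_option autoImplicit false

namespace Cfsg.Agent.Lib.Helper80.OPar

universe u

/-- [QNDP] -/
theorem pkgQndPlus : Cfsg.Agent.Lib.Helper57.OPar.PkgQndPlus.{u} := by
  intro F _ _ d
  exact Cfsg.Agent.Lib.Helper12.OHyp.nondeg_quadFormPlus d

end Cfsg.Agent.Lib.Helper80.OPar
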