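-- Sub-project [PDER+] of OPAR (S5989), package [UB] (helper80): `N ^ 3 = 0`, `ker N` totally
-- isotropic: invariant nondegenerate subspaces have dimension `4 a + 3 a₃`.
import Cfsg.Agent.Lib.Helper57.OPar.Defs

set_option autoImplicit false

namespace Cfsg.Agent.Lib.Helper80.OPar

open Module

universe u

section perp

variable {F : Type*} [Field F] {V : Type*} [AddCommGroup V] [Module F V]

/-- The (right) orthogonal of `X` for the bilinear map `B`. -/
def perp80 (B : V →ₗ[F] V →ₗ[F] F) (X : Submodule F V) : Submodule F V :=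
  (LinearMap.range (B.domRestrict X)).dualCoannihilator

theorem mem_perp80 (B : V →ₗ[F] V →ₗ[F] F) (X : Submodule F V) (v : V) :
    v ∈ perp80 B X ↔ ∀ x ∈ X, B x v = 0 := by
  unfold perp80
  rw [Submodule.mem_dualCoannihilator]
  constructor
  · intro h x hx
    exact h (B x) ⟨⟨x, hx⟩, rfl⟩
  · rintro h φ ⟨x, rfl⟩
    exact h x.1 x.2

theorem finrank_perp80 [FiniteDimensional F V] (B : V →ₗ[F] V →ₗ[F] F)
    (hnd : ∀ w, w ≠ 0 → ∃ v, B w v ≠ 0) (X : Submodule F V) :
    finrank F X + finrank F (perp80 B X) = finrank F V := by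
  have hinj : Function.Injective (B.domRestrict X) := by
    rw [← LinearMap.ker_eq_bot, Submodule.eq_bot_iff]
    intro x hx
    by_contra hne
    obtain ⟨v, hv⟩ := hnd x.1 (fun h => hne (Subtype.ext h))
    apply hv
    have h1 : (B.domRestrict X) x v = 0 := by rw [LinearMap.mem_ker.mp hx]; rfl
    exact h1
  have hR := LinearMap.finrank_range_of_inj hinj
  have hco := Subspace.finrank_add_finrank_dualCoannihilator_eq (LinearMap.range (B.domRestrict X))
  unfold perp80
  rw [← hR]
  exact hco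

end perp

/-- Core of [UB] on a nondegenerate space. -/
theorem ub_core80 (hAlt : Cfsg.Agent.Lib.Helper57.OPar.PkgAlt.{u})
    (F : Type u) [Field F] (V : Type u) [AddCommGroup V] [Module F V] [FiniteDimensional F V]
    (h2 : (2 : F) ≠ 0) (B : V →ₗ[F] V →ₗ[F] F) (N : V →ₗ[F] V)
    (hsym : ∀ u v, B u v = B v u)
    (hiso : ∀ u v, B (u + N u) (v + N v) = B u v)
    (hN3 : ∀ v, N (N (N v)) = 0)
    (hker : ∀ u v, N u = 0 → N v = 0 → B u v = 0)
    (hnd : ∀ w, w ≠ 0 → ∃ v, B w v ≠ 0) :
    ∃ a : ℕ, finrank F V = 4 * a + 3 * finrank F (LinearMap.range (N ∘ₗ N)) := by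
  have adj : ∀ u v, B (N u) v = -B u (N v) + B u (N (N v)) := by
    intro u v
    have h := hiso u (v - N v + N (N v))
    have e : v - N v + N (N v) + N (v - N v + N (N v)) = v := by
      simp only [map_add, map_sub, hN3]
      abel
    rw [e] at h
    simp only [map_add, map_sub, LinearMap.add_apply] at h
    linear_combination h
  have adj2 : ∀ u v, B (N (N u)) v = B u (N (N v)) := by
    intro u v
    rw [adj (N u) v, adj u (N v), adj u (N (N v)), hN3 v]
    simp
  have hNN : ∀ v, (N ∘ₗ N) v = N (N v) := fun v => rfl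
  -- K ≤ I
  have hI_perp : LinearMap.range N = perp80 B (LinearMap.ker N) := by
    apply Submodule.eq_of_le_of_finrank_eq
    · rintro _ ⟨u, rfl⟩
      rw [mem_perp80]
      intro k hk
      rw [hsym, adj, LinearMap.mem_ker.mp hk]
      simp
    · have h1 := LinearMap.finrank_range_add_finrank_ker N
      have h3 := finrank_perp80 B hnd (LinearMap.ker N)
      omega
  have hKI : LinearMap.ker N ≤ LinearMap.range N := by
    rw [hI_perp]
    intro k hk
    rw [mem_perp80]
    intro k' hk'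
    exact hker k' k (LinearMap.mem_ker.mp hk') (LinearMap.mem_ker.mp hk)
  have hKS : LinearMap.ker N ≤ LinearMap.ker (N ∘ₗ N) := by
    intro k hk
    rw [LinearMap.mem_ker, hNN, LinearMap.mem_ker.mp hk, map_zero]
  -- finrank S = 2 κ
  have hS : finrank F (LinearMap.ker (N ∘ₗ N)) = 2 * finrank F (LinearMap.ker N) := by
    have hrn := LinearMap.finrank_range_add_finrank_ker (N.domRestrict (LinearMap.ker (N ∘ₗ N)))
    have hr : LinearMap.range (N.domRestrict (LinearMap.ker (N ∘ₗ N))) = LinearMap.ker N := by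
      ext v
      constructor
      · rintro ⟨s, rfl⟩
        rw [LinearMap.mem_ker]
        exact LinearMap.mem_ker.mp s.2
      · intro hv
        obtain ⟨w, rfl⟩ := hKI hv
        exact ⟨⟨w, by rw [LinearMap.mem_ker, hNN]; exact LinearMap.mem_ker.mp hv⟩, rfl⟩
    have hk : LinearMap.ker (N.domRestrict (LinearMap.ker (N ∘ₗ N))) =
        (LinearMap.ker N).comap (LinearMap.ker (N ∘ₗ N)).subtype := by
      ext s
      simp [LinearMap.mem_ker]
    rw [hr, hk, (Submodule.comapSubtypeEquivOfLe hKS).finrank_eq] at hrn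
    omega
  have ha3 := LinearMap.finrank_range_add_finrank_ker (N ∘ₗ N)
  -- S^⊥ = I2
  have hS_perp : LinearMap.range (N ∘ₗ N) = perp80 B (LinearMap.ker (N ∘ₗ N)) := by
    apply Submodule.eq_of_le_of_finrank_eq
    · rintro _ ⟨w, rfl⟩
      rw [mem_perp80]
      intro s hs
      rw [hsym, hNN, adj2, ← hNN s, LinearMap.mem_ker.mp hs, map_zero]
    · have h3 := finrank_perp80 B hnd (LinearMap.ker (N ∘ₗ N))
      omega
  -- R
  obtain ⟨R, hRdef⟩ : ∃ R : Submodule F V,
      R = LinearMap.ker (N ∘ₗ N) ⊓ (LinearMap.range (N ∘ₗ N)).comap N := ⟨_, rfl⟩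
  have hRmem : ∀ v, v ∈ R ↔ N (N v) = 0 ∧ N v ∈ LinearMap.range (N ∘ₗ N) := by
    intro v
    rw [hRdef, Submodule.mem_inf, LinearMap.mem_ker, hNN, Submodule.mem_comap]
  have hRS : R ≤ LinearMap.ker (N ∘ₗ N) := by rw [hRdef]; exact inf_le_left
  have hKR : LinearMap.ker N ≤ R := by
    intro k hk
    rw [hRmem, LinearMap.mem_ker.mp hk, map_zero]
    exact ⟨rfl, Submodule.zero_mem _⟩
  have hR : finrank F R = finrank F (LinearMap.range (N ∘ₗ N)) + finrank F (LinearMap.ker N) := by
    have hrn := LinearMap.finrank_range_add_finrank_ker (N.domRestrict R)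
    have hr : LinearMap.range (N.domRestrict R) = LinearMap.range (N ∘ₗ N) := by
      ext v
      constructor
      · rintro ⟨s, rfl⟩
        exact ((hRmem s.1).mp s.2).2
      · rintro ⟨w, rfl⟩
        refine ⟨⟨N w, ?_⟩, rfl⟩
        rw [hRmem, hN3]
        exact ⟨rfl, ⟨w, rfl⟩⟩
    have hk : LinearMap.ker (N.domRestrict R) = (LinearMap.ker N).comap R.subtype := by
      ext s
      simp [LinearMap.mem_ker]
    rw [hr, hk, (Submodule.comapSubtypeEquivOfLe hKR).finrank_eq] at hrn
    omega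
  -- skewness of β(u, v) = B (N u) v on S
  have hskew : ∀ s t, N (N t) = 0 → B (N s) t = -B (N t) s := by
    intro s t ht
    rw [adj, ht, map_zero, add_zero, hsym]
  have halt : ∀ s, N (N s) = 0 → B (N s) s = 0 := by
    intro s hs
    have h := hskew s s hs
    have h3 : (2 : F) * B (N s) s = 0 := by linear_combination h
    rcases mul_eq_zero.mp h3 with h4 | h4
    · exact absurd h4 h2
    · exact h4
  -- complement of R in S
  obtain ⟨C, hC⟩ := Submodule.exists_isCompl (R.comap (LinearMap.ker (N ∘ₗ N)).subtype)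
  have hR' : finrank F (R.comap (LinearMap.ker (N ∘ₗ N)).subtype) = finrank F R :=
    (Submodule.comapSubtypeEquivOfLe hRS).finrank_eq
  have hRC := Submodule.finrank_add_eq_of_isCompl hC
  let ι : C →ₗ[F] V := (LinearMap.ker (N ∘ₗ N)).subtype ∘ₗ C.subtype
  have hιS : ∀ c : C, N (N (ι c)) = 0 := fun c => LinearMap.mem_ker.mp c.1.2
  let βC : C →ₗ[F] C →ₗ[F] F := (B ∘ₗ N).compl₁₂ ι ι
  have hβC : ∀ c c' : C, βC c c' = B (N (ι c)) (ι c') := fun c c' => rfl
  have hCeven : Even (finrank F C) := by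
    apply hAlt F C h2 βC
    · intro c
      rw [hβC]
      exact halt _ (hιS c)
    · intro c hc
      -- N (ι c) ∈ S^⊥ = I2
      have hperp : N (ι c) ∈ perp80 B (LinearMap.ker (N ∘ₗ N)) := by
        rw [mem_perp80]
        intro v hv
        have hvtop : (⟨v, hv⟩ : LinearMap.ker (N ∘ₗ N)) ∈
            R.comap (LinearMap.ker (N ∘ₗ N)).subtype ⊔ C := by
          rw [hC.sup_eq_top]
          exact Submodule.mem_top
        obtain ⟨ρ, hρ, c', hc', hsum⟩ := Submodule.mem_sup.mp hvtop
        have hv' : v = (ρ : V) + (c' : V) := by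
          have := congrArg Subtype.val hsum
          simpa using this.symm
        rw [hsym, hv', map_add]
        have h1 : B (N (ι c)) (c' : V) = 0 := by
          have := hc ⟨c', hc'⟩
          rw [hβC] at this
          exact this
        have h2' : B (N (ι c)) (ρ : V) = 0 := by
          have hρR : (ρ : V) ∈ R := hρ
          obtain ⟨-, w, hw⟩ := (hRmem _).mp hρR
          rw [hskew _ _ (LinearMap.mem_ker.mp ρ.2), ← hw, hNN, adj2, hιS c, map_zero, neg_zero]
        rw [h1, h2', add_zero]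
      rw [← hS_perp] at hperp
      have hcR : (ι c) ∈ R := (hRmem _).mpr ⟨hιS c, hperp⟩
      have hmem : (c : LinearMap.ker (N ∘ₗ N)) ∈
          R.comap (LinearMap.ker (N ∘ₗ N)).subtype ⊓ C := ⟨hcR, c.2⟩
      rw [hC.inf_eq_bot, Submodule.mem_bot] at hmem
      exact Subtype.ext hmem
  obtain ⟨a, ha⟩ := hCeven
  exact ⟨a, by omega⟩

/-- [UB] -/
theorem pkgUB (hAlt : Cfsg.Agent.Lib.Helper57.OPar.PkgAlt.{u}) :
    Cfsg.Agent.Lib.Helper57.OPar.PkgUB.{u} := by
  intro F _ V _ _ _ h2 B N hsym hiso hN3 hker hrk W hW hnd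
  let BW : W →ₗ[F] W →ₗ[F] F := B.domRestrict₁₂ W W
  let NW : W →ₗ[F] W := N.restrict hW
  have hBW : ∀ u v : W, BW u v = B u v := fun u v => rfl
  have hNW : ∀ u : W, ((NW u : W) : V) = N u := fun u => rfl
  obtain ⟨a, ha⟩ := ub_core80 hAlt F W h2 BW NW
    (fun u v => hsym u v)
    (fun u v => by
      rw [hBW, hBW, Submodule.coe_add, Submodule.coe_add, hNW, hNW]
      exact hiso u v)
    (fun v => Subtype.ext (by
      rw [hNW, hNW, hNW]
      exact hN3 v))
    (fun u v hu hv => hker u v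
      (by rw [← hNW, hu]; rfl) (by rw [← hNW, hv]; rfl))
    (fun w hw => by
      obtain ⟨v, hv, hvB⟩ := hnd w.1 w.2 (fun h => hw (Subtype.ext h))
      exact ⟨⟨v, hv⟩, hvB⟩)
  refine ⟨a, finrank F (LinearMap.range (NW ∘ₗ NW)), ha, ?_⟩
  have hle : (LinearMap.range (NW ∘ₗ NW)).map W.subtype ≤ LinearMap.range (N ∘ₗ N) := by
    rintro _ ⟨_, ⟨w, rfl⟩, rfl⟩
    exact ⟨w, rfl⟩
  have h1 := Submodule.finrank_mono hle
  rw [Submodule.finrank_map_subtype_eq] at h1
  omega

end Cfsg.Agent.Lib.Helper80.OPar
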